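import Cfsg.Agent.Lib.ToddCox.RUO.OrbD
set_option autoImplicit false
set_option maxRecDepth 100000
namespace Cfsg.Agent.Lib.ToddCox.RUO
open Cfsg.Agent.Lib.ToddCox.RUT in
theorem lv0_0 : allBits (fun k => bif Nat.blt k 4060 then chkOrbPos Cfsg.Agent.Lib.ToddCox.RUT.tab L 0 0 4060 4060 (fun q => orbR (Nat.add 0 q)) k else true) 11 0 = true := by decide +kernel
theorem lv0_1 : allBits (fun k => bif Nat.blt k 4060 then chkOrbPos Cfsg.Agent.Lib.ToddCox.RUT.tab L 0 0 4060 4060 (fun q => orbR (Nat.add 0 q)) k else true) 11 2048 = true := by decide +kernel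
theorem fx0 : ∀ w ∈ L.drop 6, tabW Cfsg.Agent.Lib.ToddCox.RUT.tab w 0 = 0 := by decide +kernel
theorem lv1_0 : allBits (fun k => bif Nat.blt k 2304 then chkOrbPos Cfsg.Agent.Lib.ToddCox.RUT.tab L 6 1 2304 4060 (fun q => orbR (Nat.add 4060 q)) k else true) 11 0 = true := by decide +kernel
theorem lv1_1 : allBits (fun k => bif Nat.blt k 2304 then chkOrbPos Cfsg.Agent.Lib.ToddCox.RUT.tab L 6 1 2304 4060 (fun q => orbR (Nat.add 4060 q)) k else true) 11 2048 = true := by decide +kernel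
theorem fx1 : ∀ w ∈ L.drop 12, tabW Cfsg.Agent.Lib.ToddCox.RUT.tab w 1 = 1 := by decide +kernel
theorem lv2_0 : allBits (fun k => bif Nat.blt k 975 then chkOrbPos Cfsg.Agent.Lib.ToddCox.RUT.tab L 12 12 975 4060 (fun q => orbR (Nat.add 6364 q)) k else true) 11 0 = true := by decide +kernel
theorem fx2 : ∀ w ∈ L.drop 17, tabW Cfsg.Agent.Lib.ToddCox.RUT.tab w 12 = 12 := by decide +kernel
theorem lv3_0 : allBits (fun k => bif Nat.blt k 16 then chkOrbPos Cfsg.Agent.Lib.ToddCox.RUT.tab L 17 2 16 4060 (fun q => orbR (Nat.add 7339 q)) k else true) 11 0 = true := by decide +kernel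
theorem fx3 : ∀ w ∈ L.drop 20, tabW Cfsg.Agent.Lib.ToddCox.RUT.tab w 2 = 2 := by decide +kernel
end Cfsg.Agent.Lib.ToddCox.RUO
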